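import Cfsg.Agent.U43Mult.Three
import Cfsg.Agent.Classical.ExcSixMinus
import Cfsg.Agent.SUPres.Transport
import Cfsg.Agent.IsoPSU42.Main

set_option autoImplicit false

/-!
The Schur multiplier of `PSU(4, 3)`.
-/

namespace Cfsg.Agent.U43Mult

open Cfsg.Agent.McLUnitary Cfsg.Agent.Classical.U

universe u

theorem hasSchurMultiplier_S0 :
    Cfsg.HasSchurMultiplier ↥S0 (Multiplicative (ZMod 4 × ZMod 3 × ZMod 3)) := by
  haveI : Finite ↥S0 := Nat.finite_of_card_ne_zero (by rw [card_S0]; norm_num)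
  haveI : Fact (Nat.Prime 3) := ⟨by norm_num⟩
  haveI : Fintype (GaloisField 3 2) := Fintype.ofFinite _
  have hF : Fintype.card (GaloisField 3 2) = 9 := by
    rw [← Nat.card_eq_fintype_card, GaloisField.card 3 2 (by norm_num)]; norm_num
  have hS : SqField (GaloisField 3 2) 3 := sqField_of_fintype (by rw [hF]; norm_num)
  obtain ⟨e⟩ := nonempty_iso hF
  let f : Cfsg.SU 4 (GaloisField 3 2) 3 →* ↥S0 :=
    e.symm.toMonoidHom.comp (QuotientGroup.mk' (Subgroup.center _))
  have hfs : Function.Surjective f := e.symm.surjective.comp (QuotientGroup.mk'_surjective _)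
  have hker : f.ker = Subgroup.center (Cfsg.SU 4 (GaloisField 3 2) 3) := by
    ext x
    rw [MonoidHom.mem_ker, MonoidHom.comp_apply]
    exact (map_eq_one_iff _ e.symm.injective).trans (QuotientGroup.eq_one_iff x)
  haveI hperf := Cfsg.Agent.Classical.Exc.isPerfect_SU_four hS
  have hcomm : commutator (Cfsg.SU 4 (GaloisField 3 2) 3) = ⊤ := hperf.commutator_eq_top
  have hG : commutator ↥S0 = ⊤ := by
    rw [← Subgroup.map_top_of_surjective f hfs, ← hcomm, commutator_def, commutator_def,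
      Subgroup.map_commutator, Subgroup.map_top_of_surjective f hfs]
  have h4 : Cfsg.IsStemExtension f := ⟨hfs, hker.le, by rw [hcomm]; exact le_top⟩
  have hc4 : Nat.card f.ker = 4 := by
    rw [hker, card_center_SU hS (by norm_num)]; norm_num
  haveI : IsCyclic f.ker := by
    rw [hker]; exact Cfsg.Agent.SUPres.isCyclic_center_su hS (by norm_num)
  let e4 : f.ker ≃* Multiplicative (ZMod 4) :=
    (zmodCyclicMulEquiv (inferInstance : IsCyclic f.ker)).symm.trans
      (AddEquiv.toMultiplicative (ZMod.ringEquivCongr hc4).toAddEquiv)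
  have h4exp : ∀ z ∈ f.ker, z ^ 4 = 1 := fun z hz => by
    have h : (⟨z, hz⟩ : f.ker) ^ Nat.card f.ker = 1 := pow_card_eq_one'
    rw [hc4] at h
    exact congrArg Subtype.val h
  obtain ⟨h3, h3exp, ⟨e3⟩⟩ := stem_three hG
  have hperf3 : commutator ↥(commutator ↥W) = ⊤ := by
    refine eq_top_iff.2 fun x _ => ?_
    obtain ⟨d, hd⟩ := (show ∀ g, ∃ d ∈ commutator ↥(commutator ↥W), sigma3 d = g by
      intro g
      have : g ∈ (commutator ↥(commutator ↥W)).map sigma3 := by
        have e : (commutator ↥(commutator ↥W)).map sigma3 = ⊤ :=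
          (Subgroup.map_commutator _ _ sigma3).trans (by
            rw [Subgroup.map_top_of_surjective _ h3.1]; exact hG)
        rw [e]
        trivial
      exact this) (sigma3 x)
    have hk : d⁻¹ * x ∈ sigma3.ker := by
      rw [MonoidHom.mem_ker, map_mul, map_inv, hd.2, inv_mul_cancel]
    simpa using mul_mem hd.1 (h3.2.2 hk)
  obtain ⟨hst, ⟨eK⟩⟩ := exists_stem_fibre h4 h3 hcomm hperf3 (m := 4) (n := 3) (by norm_num) h4exp
    h3exp e4 e3
  have eA := eK.trans (MulEquiv.prodMultiplicative (ZMod 4) (ZMod 3 × ZMod 3)).symm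
  refine CentralExt.hasSchurMultiplier_of_stem hst ?_ eA
  rw [Nat.card_congr eA.toEquiv, Nat.card_congr Multiplicative.toAdd]
  exact card_schurMult_le.trans (by simp [Nat.card_prod])

theorem hasSchurMultiplier_PSU43 {F : Type u} [Field F] [Fintype F] (hF : Fintype.card F = 9) :
    Cfsg.HasSchurMultiplier (Cfsg.PSU 4 F 3) (Multiplicative (ZMod 4 × ZMod 3 × ZMod 3)) := by
  haveI : Fact (Nat.Prime 3) := ⟨by norm_num⟩
  haveI : Fintype (GaloisField 3 2) := Fintype.ofFinite _
  have hF0 : Fintype.card (GaloisField 3 2) = 9 := by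
    rw [← Nat.card_eq_fintype_card, GaloisField.card 3 2 (by norm_num)]; norm_num
  obtain ⟨e0⟩ := nonempty_iso hF0
  obtain ⟨e1⟩ := Cfsg.Agent.IsoPSU42.nonempty_su_equiv 4 3
    (FiniteField.ringEquivOfCardEq (hF0.trans hF.symm))
  obtain ⟨e2⟩ := Cfsg.Agent.IsoPSU42.centerQuot_congr e1
  exact CentralExt.hasSchurMultiplier_congr (e0.trans e2) hasSchurMultiplier_S0

end Cfsg.Agent.U43Mult
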